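import Cfsg.Agent.Lib.LU.B

/-!
# Conway's characterisation of the Leech lattice: identification
-/

set_option autoImplicit false

namespace Cfsg.Lib.LU

open Finset Cfsg.Lib.Leech

theorem sum_signedPerm (σ : Equiv.Perm GolayPt) (c : Finset GolayPt) (x : GolayPt → ℤ) :
    ∑ p, signedPerm σ c x p = ∑ i, if σ i ∈ c then -x i else x i := by
  rw [← Equiv.sum_comp σ]
  simp [signedPerm]

theorem od_signedPerm (σ : Equiv.Perm GolayPt) (c : Finset GolayPt) (x : GolayPt → ℤ) :
    od (signedPerm σ c x) = (od x).image σ := by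
  ext p
  obtain ⟨i, rfl⟩ := σ.surjective p
  rw [mem_od, σ.injective.mem_finset_image, mem_od]
  simp only [signedPerm, Equiv.symm_apply_apply]
  split_ifs <;> omega

theorem signedPerm_mul (σ : Equiv.Perm GolayPt) (c : Finset GolayPt) (x : GolayPt → ℤ) (a : ℤ) :
    signedPerm σ c (fun i => a * x i) = fun i => a * signedPerm σ c x i := by
  funext i; simp only [signedPerm]; split_ifs <;> ring

theorem signedPerm_sub (σ : Equiv.Perm GolayPt) (c : Finset GolayPt) (x y : GolayPt → ℤ) :
    signedPerm σ c (x - y) = signedPerm σ c x - signedPerm σ c y := by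
  funext i; simp only [signedPerm, Pi.sub_apply]; split_ifs <;> ring

theorem red_mem_iff' {z : GolayPt → ℤ} : red z ∈ golayCode ↔ od z ∈ Golay.CW := red_mem_iff

theorem Pre.ident {Λ : AddSubgroup (GolayPt → ℤ)} (h : Pre Λ) :
    ∃ (σ : Equiv.Perm GolayPt) (c : Finset GolayPt),
      ∀ x, x ∈ Λ ↔ signedPerm σ c x ∈ leechLattice := by
  obtain ⟨hG, x0, hx0, h0⟩ := h.golay
  obtain ⟨σ, hσ⟩ := hG.exists_equiv Golay.isGolaySys_CW
  let c : Finset GolayPt := univ.filter fun p => x0 (σ.symm p) % 4 = 3
  have hc : ∀ i, σ i ∈ c ↔ x0 i % 4 = 3 := fun i => by simp [c]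
  have hev : ∀ z : GolayPt → ℤ, (fun i => 2 * z i) ∈ Λ →
      (∑ i, signedPerm σ c z i) % 4 = 0 ∧ od (signedPerm σ c z) ∈ Golay.CW := by
    intro z hz
    refine ⟨?_, ?_⟩
    · have h8 := h.dot8 _ hz _ hx0
      have e : dotInt (fun i => 2 * z i) x0 = 2 * ∑ i, z i * x0 i := by
        unfold dotInt; rw [mul_sum]; exact sum_congr rfl fun i _ => by ring
      have h4 : (4 : ℤ) ∣ ∑ i, z i * x0 i - ∑ i, signedPerm σ c z i := by
        rw [sum_signedPerm, ← sum_sub_distrib]
        refine dvd_sum fun i _ => ?_
        have := h0 i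
        by_cases hi : σ i ∈ c
        · rw [if_pos hi]; rw [hc] at hi
          exact ⟨z i * (x0 i / 4 + 1), by
            conv_lhs => rw [show x0 i = 4 * (x0 i / 4) + 3 by omega]
            ring⟩
        · rw [if_neg hi]; rw [hc] at hi
          exact ⟨z i * (x0 i / 4), by
            conv_lhs => rw [show x0 i = 4 * (x0 i / 4) + 1 by omega]
            ring⟩
      omega
    · rw [od_signedPerm, ← hσ, Golay.image_mem_imageSys]
      exact mem_cs.2 ⟨z, hz, rfl⟩
  have hev' : ∀ x ∈ Λ, (∀ i, x i % 2 = 0) → signedPerm σ c x ∈ leechLattice := by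
    intro x hx h2
    have e : x = fun i => 2 * (x i / 2) := funext fun i => by have := h2 i; omega
    obtain ⟨a, b⟩ := hev (fun i => x i / 2) (e ▸ hx)
    refine mem_leech_iff.2 ⟨0, _, fun i => ?_, red_mem_iff'.2 b, by rw [a]; rfl⟩
    conv_lhs => rw [e, signedPerm_mul]
    simp
  have hx0' : signedPerm σ c x0 ∈ leechLattice := by
    have h1 : ∀ p, signedPerm σ c x0 p % 4 = 1 := fun p => by
      obtain ⟨i, rfl⟩ := σ.surjective p
      have := h0 i
      simp only [signedPerm, Equiv.symm_apply_apply, hc]
      split_ifs <;> omega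
    have h16 := h.n16 _ hx0
    rw [← sqNorm_signedPerm σ c] at h16
    generalize signedPerm σ c x0 = y at h1 h16
    have e : ∀ p, y p = 1 + 2 * (2 * (y p / 4)) := fun p => by have := h1 p; omega
    refine mem_leech_iff.2 ⟨1, fun p => 2 * (y p / 4), e, ?_, ?_⟩
    · rw [red_mem_iff']
      have : od (fun p => 2 * (y p / 4)) = ∅ := by
        ext p; simp [mem_od]
      rw [this]; exact Golay.empty_mem_CW
    · have : sqNorm y = 24 + 8 * ∑ p, y p / 4 + 16 * ∑ p, (y p / 4) ^ 2 := by
        unfold sqNorm
        rw [sum_congr rfl fun p _ => show y p ^ 2 = 1 + 8 * (y p / 4) + 16 * (y p / 4) ^ 2 by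
          conv_lhs => rw [e p]
          ring, sum_add_distrib, sum_add_distrib, ← mul_sum, ← mul_sum, sum_const, card_univ,
          card_golayPt]
        rfl
      rw [← mul_sum]
      omega
  have hback : ∀ x : GolayPt → ℤ, (∀ i, x i % 2 = 0) → signedPerm σ c x ∈ leechLattice →
      x ∈ Λ := by
    intro x h2 hx
    obtain ⟨w, rfl⟩ : ∃ w : GolayPt → ℤ, x = fun i => 2 * w i :=
      ⟨fun i => x i / 2, funext fun i => by have := h2 i; simp only; omega⟩
    rw [signedPerm_mul] at hx
    obtain ⟨m, z, hm, hz, hr, hs⟩ := mem_leech_iff'.1 hx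
    have hm0 : m = 0 := by have := hz none; omega
    subst hm0
    have ez : z = signedPerm σ c w := funext fun i => by have := hz i; omega
    subst ez
    rw [red_mem_iff', od_signedPerm, ← hσ, Golay.image_mem_imageSys] at hr
    obtain ⟨u, hu, eu⟩ := mem_cs.1 hr
    have hp : ∀ i, (w i - u i) % 2 = 0 := fun i => by
      have := Finset.ext_iff.1 eu i
      simp only [mem_od] at this
      omega
    have h4 := h.four_mem (t := fun i => (w i - u i) / 2) (by
      have a := (hev u hu).1
      have b : ∑ i, signedPerm σ c w i - ∑ i, signedPerm σ c u i =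
          2 * ∑ i, signedPerm σ c (fun i => (w i - u i) / 2) i := by
        rw [← sum_sub_distrib, mul_sum]
        refine sum_congr rfl fun p _ => ?_
        have := hp (σ.symm p)
        simp only [signedPerm]
        split_ifs <;> omega
      have d : (2 : ℤ) ∣ ∑ i, signedPerm σ c (fun i => (w i - u i) / 2) i -
          ∑ i, (w i - u i) / 2 := by
        rw [sum_signedPerm, ← sum_sub_distrib]
        refine dvd_sum fun i _ => ?_
        split_ifs <;> omega
      omega)
    convert Λ.add_mem hu h4 using 1
    funext i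
    have := hp i
    simp only [Pi.add_apply]; omega
  refine ⟨σ, c, fun x => ⟨fun hx => ?_, fun hx => ?_⟩⟩
  · by_cases h2 : x none % 2 = 0
    · exact hev' x hx fun i => (h.parity hx i none).trans h2
    · have := hev' _ (Λ.sub_mem hx hx0) fun i => by
        have a := h.parity hx i none
        have b := h0 i
        simp only [Pi.sub_apply]; omega
      rw [signedPerm_sub] at this
      simpa using leechLattice.add_mem this hx0'
  · obtain ⟨m, z, hm, hz, -, -⟩ := mem_leech_iff'.1 hx
    have hp : ∀ i, x i % 2 = m := fun i => by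
      have := hz (σ i)
      simp only [signedPerm, Equiv.symm_apply_apply] at this
      split_ifs at this <;> omega
    rcases hm with rfl | rfl
    · exact hback x hp hx
    · have := hback (x - x0) (fun i => by
        have a := hp i
        have b := h0 i
        simp only [Pi.sub_apply]; omega) (by
        rw [signedPerm_sub]; exact leechLattice.sub_mem hx hx0')
      simpa using Λ.add_mem this hx0

end Cfsg.Lib.LU
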