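import Cfsg.Agent.Lib.Leech.Co0
import Cfsg.Agent.Lib.Golay.UniqueCode
import Cfsg.Agent.Lib.Golay.Code

/-!
# Conway's characterisation of the Leech lattice: the code of a lattice with a frame
-/

set_option autoImplicit false

namespace Cfsg.Lib.LU

open Finset Cfsg.Lib.Leech

/-- A lattice in frame coordinates. -/
structure Pre (Λ : AddSubgroup (GolayPt → ℤ)) : Prop where
  dot8 : ∀ x ∈ Λ, ∀ y ∈ Λ, (8 : ℤ) ∣ dotInt x y
  n16 : ∀ x ∈ Λ, (16 : ℤ) ∣ sqNorm x
  ne16 : ∀ x ∈ Λ, sqNorm x ≠ 16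
  four : ∀ i j, (Pi.single i 4 + Pi.single j 4 : GolayPt → ℤ) ∈ Λ
  cnt : {x | x ∈ Λ ∧ sqNorm x = 32}.ncard = 196560

/-- the set of odd coordinates -/
def od (z : GolayPt → ℤ) : Finset GolayPt := univ.filter fun i => z i % 2 = 1

theorem mem_od {z : GolayPt → ℤ} {i : GolayPt} : i ∈ od z ↔ z i % 2 = 1 := by simp [od]

/-- the code of the lattice -/
def code (Λ : AddSubgroup (GolayPt → ℤ)) : Submodule (ZMod 2) (GolayPt → ZMod 2) where
  carrier := {w | ∃ z : GolayPt → ℤ, (fun i => 2 * z i) ∈ Λ ∧ red z = w}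
  zero_mem' := ⟨0, by
    have : (fun i => 2 * (0 : GolayPt → ℤ) i) = 0 := by funext i; simp
    rw [this]; exact Λ.zero_mem, by funext i; simp [red]⟩
  add_mem' := by
    rintro _ _ ⟨y, hy, rfl⟩ ⟨z, hz, rfl⟩
    refine ⟨y + z, ?_, red_add y z⟩
    convert Λ.add_mem hy hz using 1
    funext i; simp [mul_add]
  smul_mem' := by
    rintro c _ ⟨z, hz, rfl⟩
    rcases Golay.zmod2_cases c with rfl | rfl
    · refine ⟨0, ?_, by funext i; simp [red]⟩
      have : (fun i => 2 * (0 : GolayPt → ℤ) i) = 0 := by funext i; simp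
      rw [this]; exact Λ.zero_mem
    · exact ⟨z, hz, by simp⟩

/-- the code as a set system -/
abbrev cs (Λ : AddSubgroup (GolayPt → ℤ)) : Set (Finset GolayPt) :=
  supports (code Λ : Set (GolayPt → ZMod 2))

theorem mem_cs {Λ : AddSubgroup (GolayPt → ℤ)} {c : Finset GolayPt} :
    c ∈ cs Λ ↔ ∃ z : GolayPt → ℤ, (fun i => 2 * z i) ∈ Λ ∧ od z = c := by
  constructor
  · rintro ⟨_, ⟨z, hz, rfl⟩, rfl⟩
    exact ⟨z, hz, (support_red z).symm⟩
  · rintro ⟨z, hz, rfl⟩
    exact ⟨_, ⟨z, hz, rfl⟩, support_red z⟩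

namespace Pre

variable {Λ : AddSubgroup (GolayPt → ℤ)} (h : Pre Λ)
include h

theorem four_mem {t : GolayPt → ℤ} (ht : (∑ i, t i) % 2 = 0) : (fun i => 4 * t i) ∈ Λ := by
  obtain ⟨k, hk⟩ : ∃ k, ∑ i, t i = 2 * k := ⟨(∑ i, t i) / 2, by omega⟩
  have h1 : (∑ i, t i • (Pi.single i 4 + Pi.single none 4 : GolayPt → ℤ)) ∈ Λ :=
    sum_mem fun i _ => Λ.zsmul_mem (h.four i none) _
  have h2 := Λ.sub_mem h1 (Λ.zsmul_mem (h.four none none) k)
  convert h2 using 1
  funext j
  simp only [smul_add, sum_add_distrib, ← sum_smul, hk, Pi.sub_apply, Pi.add_apply,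
    Finset.sum_apply, Pi.smul_apply, smul_eq_mul]
  have : ∑ i, t i * (Pi.single i 4 : GolayPt → ℤ) j = 4 * t j := by
    rw [sum_eq_single j (fun i _ hi => by rw [Pi.single_eq_of_ne' hi, mul_zero]) (by simp)]
    simp [mul_comm]
  rw [this]; ring

theorem single_four (i : GolayPt) : (Pi.single i 4 : GolayPt → ℤ) ∉ Λ := fun hm =>
  h.ne16 _ hm (by rw [sqNorm_single]; norm_num)

theorem even_of_four {t : GolayPt → ℤ} (ht : (fun i => 4 * t i) ∈ Λ) : (∑ i, t i) % 2 = 0 := by
  by_contra hc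
  have h1 := h.four_mem (t := t - Pi.single none 1) (by
    simp only [Pi.sub_apply, sum_sub_distrib, Finset.sum_pi_single', mem_univ, if_true]; omega)
  refine h.single_four none ?_
  convert Λ.sub_mem ht h1 using 1
  funext j
  by_cases hj : j = none
  · subst hj; simp; ring
  · simp [Pi.single_eq_of_ne hj]

theorem parity {x : GolayPt → ℤ} (hx : x ∈ Λ) (i j : GolayPt) : x i % 2 = x j % 2 := by
  have := h.dot8 x hx _ (h.four i j)
  rw [dot_add_right, dot_single, dot_single] at this
  omega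

theorem min_wt {c : Finset GolayPt} (hc : c ∈ cs Λ) (hne : c ≠ ∅) : 8 ≤ c.card := by
  obtain ⟨z, hz, rfl⟩ := mem_cs.1 hc
  obtain ⟨i0, hi0⟩ := nonempty_iff_ne_empty.2 hne
  have key : ∃ y ∈ Λ, sqNorm y = 4 * ((od z).card : ℤ) := by
    have aux : ∀ t : GolayPt → ℤ, (∑ i, t i) % 2 = 0 →
        (∀ i, (z i - 2 * t i) ^ 2 = if i ∈ od z then 1 else 0) →
        ∃ y ∈ Λ, sqNorm y = 4 * ((od z).card : ℤ) := by
      intro t ht hsq
      refine ⟨_, Λ.sub_mem hz (h.four_mem ht), ?_⟩
      unfold sqNorm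
      have : ∀ i, ((fun i => 2 * z i) - fun i => 4 * t i : GolayPt → ℤ) i ^ 2 =
          4 * if i ∈ od z then 1 else 0 := fun i => by
        rw [← hsq i]; simp only [Pi.sub_apply]; ring
      simp only [this, ← mul_sum]
      simp
    by_cases hp : (∑ i, z i / 2) % 2 = 0
    · refine aux (fun i => z i / 2) hp fun i => ?_
      by_cases hi : i ∈ od z
      · rw [if_pos hi]; rw [mem_od] at hi
        have : z i - 2 * (z i / 2) = 1 := by omega
        rw [this]; rfl
      · rw [if_neg hi]; rw [mem_od] at hi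
        have : z i - 2 * (z i / 2) = 0 := by omega
        rw [this]; rfl
    · refine aux ((fun i => z i / 2) + Pi.single i0 1) (by
        simp only [Pi.add_apply, sum_add_distrib, Finset.sum_pi_single', mem_univ, if_true]
        omega) fun i => ?_
      by_cases hii : i = i0
      · subst hii
        rw [if_pos hi0]; rw [mem_od] at hi0
        have : z i - 2 * ((fun i => z i / 2) + Pi.single i 1 : GolayPt → ℤ) i = -1 := by
          simp only [Pi.add_apply, Pi.single_eq_same]; omega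
        rw [this]; rfl
      · simp only [Pi.add_apply, Pi.single_eq_of_ne hii, add_zero]
        by_cases hi : i ∈ od z
        · rw [if_pos hi]; rw [mem_od] at hi
          have : z i - 2 * (z i / 2) = 1 := by omega
          rw [this]; rfl
        · rw [if_neg hi]; rw [mem_od] at hi
          have : z i - 2 * (z i / 2) = 0 := by omega
          rw [this]; rfl
  obtain ⟨y, hy, e⟩ := key
  have h1 := h.n16 y hy
  have h2 := h.ne16 y hy
  have h3 : 0 < (od z).card := card_pos.2 ⟨i0, hi0⟩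
  omega

theorem finrank_le : Module.finrank (ZMod 2) (code Λ) ≤ 12 := by
  let β : LinearMap.BilinForm (ZMod 2) (GolayPt → ZMod 2) := Matrix.toBilin' 1
  have hβ : ∀ v w, β v w = ∑ i, v i * w i := fun v w => by
    simp [β, Matrix.toBilin'_apply', dotProduct]
  have hnd : β.Nondegenerate :=
    LinearMap.BilinForm.nondegenerate_toBilin'_iff_det_ne_zero.2 (by simp)
  have hle : code Λ ≤ β.orthogonal (code Λ) := by
    rintro _ ⟨y, hy, rfl⟩ _ ⟨z, hz, rfl⟩
    rw [hβ]
    have h8 := h.dot8 _ hz _ hy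
    have : dotInt (fun i => 2 * z i) (fun i => 2 * y i) = 4 * ∑ i, z i * y i := by
      unfold dotInt; rw [mul_sum]; exact sum_congr rfl fun i _ => by ring
    rw [this] at h8
    have h2 : ((∑ i, z i * y i : ℤ) : ZMod 2) = 0 :=
      (ZMod.intCast_zmod_eq_zero_iff_dvd _ 2).2 (by push_cast; omega)
    simpa [red] using h2
  have h1 := Submodule.finrank_mono hle
  rw [LinearMap.BilinForm.finrank_orthogonal hnd] at h1
  have h2 : Module.finrank (ZMod 2) (GolayPt → ZMod 2) = 24 := by
    rw [Module.finrank_fintype_fun_eq_card, card_golayPt]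
  omega

omit h in
theorem cs_symmDiff {s t : Finset GolayPt} (hs : s ∈ cs Λ) (ht : t ∈ cs Λ) :
    symmDiff s t ∈ cs Λ := by
  rw [Golay.mem_supports] at *
  rw [Golay.word_symmDiff]
  exact (code Λ).add_mem hs ht

open Classical in
/-- packing bound -/
theorem oct_le : (univ.filter fun c : Finset GolayPt => c ∈ cs Λ ∧ c.card = 8).card ≤ 759 := by
  set O := univ.filter fun c : Finset GolayPt => c ∈ cs Λ ∧ c.card = 8 with hO
  have h1 : (O.biUnion (powersetCard 5)).card = ∑ c ∈ O, (powersetCard 5 c).card := by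
    refine card_biUnion fun c hc d hd hcd => ?_
    simp only [hO, coe_filter, mem_univ, true_and, Set.mem_ofPred_eq] at hc hd
    rw [Function.onFun, disjoint_left]
    intro s hs hs'
    rw [mem_powersetCard] at hs hs'
    have h8 := h.min_wt (cs_symmDiff hc.1 hd.1) (by
      intro e; exact hcd (symmDiff_eq_bot.1 e))
    have h5 : 5 ≤ (c ∩ d).card := hs.2 ▸ card_le_card (subset_inter hs.1 hs'.1)
    have e1 := card_sdiff_add_card_inter c d
    have e2 := card_sdiff_add_card_inter d c
    rw [inter_comm] at e2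
    have e3 : (symmDiff c d).card ≤ (c \ d).card + (d \ c).card := by
      rw [symmDiff_def]; exact card_union_le _ _
    omega
  have h2 : ∑ c ∈ O, (powersetCard 5 c).card = O.card * 56 := by
    rw [sum_const_nat (m := 56)]
    intro c hc
    simp only [hO, mem_filter] at hc
    rw [card_powersetCard, hc.2.2]; rfl
  have h3 : (O.biUnion (powersetCard 5)).card ≤ (powersetCard 5 (univ : Finset GolayPt)).card := by
    refine card_le_card fun s hs => ?_
    obtain ⟨c, -, hs⟩ := mem_biUnion.1 hs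
    rw [mem_powersetCard] at hs ⊢
    exact ⟨subset_univ _, hs.2⟩
  rw [card_powersetCard, card_univ, card_golayPt] at h3
  have : Nat.choose 24 5 = 42504 := by decide
  omega

end Pre

end Cfsg.Lib.LU
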