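import Cfsg.Agent.Lib.LU.A

/-!
# Conway's characterisation of the Leech lattice: counting the minimal vectors
-/

set_option autoImplicit false

namespace Cfsg.Lib.LU

open Finset Cfsg.Lib.Leech

/-- a point of a non-empty set -/
noncomputable def pick (c : Finset GolayPt) : GolayPt :=
  if h : c.Nonempty then h.choose else none

theorem pick_mem {c : Finset GolayPt} (h : c.Nonempty) : pick c ∈ c := by
  rw [pick, dif_pos h]; exact h.choose_spec

theorem sq_two {t : GolayPt → ℤ} (ht : ∑ i, t i ^ 2 = 2) :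
    ∃ (i j : GolayPt) (a b : Bool), t = Pi.single i (if a then 1 else -1) +
      Pi.single j (if b then 1 else -1) := by
  have hle : ∀ i, t i ^ 2 ≤ 2 := fun i =>
    ht ▸ single_le_sum (f := fun i => t i ^ 2) (fun i _ => sq_nonneg _) (mem_univ i)
  have h1 : ∀ i, t i = 0 ∨ t i = 1 ∨ t i = -1 := fun i => by
    have := hle i
    have h2 : t i ≤ 1 := by nlinarith
    have h3 : -1 ≤ t i := by nlinarith
    omega
  have h2 : ∀ i, t i ^ 2 = if t i ≠ 0 then 1 else 0 := fun i => by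
    rcases h1 i with e | e | e <;> simp [e]
  simp only [h2, sum_boole] at ht
  obtain ⟨i, j, hij, e⟩ := card_eq_two.1 (by exact_mod_cast ht :
    (univ.filter fun i => t i ≠ 0).card = 2)
  have hm : ∀ k, t k ≠ 0 ↔ k = i ∨ k = j := fun k => by
    have := Finset.ext_iff.1 e k
    simpa using this
  refine ⟨i, j, decide (t i = 1), decide (t j = 1), funext fun k => ?_⟩
  have hi := (hm i).2 (Or.inl rfl)
  have hj := (hm j).2 (Or.inr rfl)
  by_cases hki : k = i
  · subst hki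
    rcases h1 k with e | e | e <;> simp_all
  · by_cases hkj : k = j
    · subst hkj
      rcases h1 k with e | e | e <;> simp_all
    · have : t k = 0 := by
        by_contra hc; rcases (hm k).1 hc with e | e <;> contradiction
      simp [hki, hkj, this]

theorem odd_shape {x : GolayPt → ℤ} (hodd : ∀ i, x i % 2 = 1) (hn : sqNorm x = 32) :
    ∃ i, x i ^ 2 = 9 ∧ ∀ j, j ≠ i → x j ^ 2 = 1 := by
  have h8 : ∀ i, ∃ k : ℤ, 0 ≤ k ∧ x i ^ 2 = 1 + 8 * k := fun i => by
    obtain ⟨m, hm⟩ : ∃ m, x i = 2 * m + 1 := ⟨x i / 2, by have := hodd i; omega⟩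
    obtain ⟨k, hk⟩ := Int.even_mul_succ_self m
    refine ⟨k, by nlinarith [sq_nonneg (2 * m + 1)], ?_⟩
    rw [hm]; linear_combination 4 * hk
  choose k hk0 hk using h8
  have hs : ∑ i, k i = 1 := by
    unfold sqNorm at hn
    have e : ∑ i, x i ^ 2 = 24 + 8 * ∑ i, k i := by
      rw [sum_congr rfl fun i _ => hk i, sum_add_distrib, ← mul_sum, sum_const, card_univ,
        card_golayPt]
      rfl
    omega
  obtain ⟨i, -, hi⟩ := exists_ne_zero_of_sum_ne_zero (hs ▸ one_ne_zero)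
  rw [← add_sum_erase _ _ (mem_univ i)] at hs
  have h1 : 0 ≤ ∑ j ∈ univ.erase i, k j := sum_nonneg fun j _ => hk0 j
  have h2 := hk0 i
  have h3 : ∑ j ∈ univ.erase i, k j = 0 := by omega
  refine ⟨i, by rw [hk]; omega, fun j hj => ?_⟩
  rw [hk, (sum_eq_zero_iff_of_nonneg fun j _ => hk0 j).1 h3 j (by simpa using hj)]; rfl

namespace Pre

variable {Λ : AddSubgroup (GolayPt → ℤ)} (h : Pre Λ)
include h

theorem even_shape {z : GolayPt → ℤ} (hz : (fun i => 2 * z i) ∈ Λ)
    (hn : sqNorm (fun i => 2 * z i) = 32) (hne : od z ≠ ∅) :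
    (od z).card = 8 ∧ ∀ i, z i ^ 2 = if i ∈ od z then 1 else 0 := by
  have h8 := h.min_wt (mem_cs.2 ⟨z, hz, rfl⟩) hne
  have hs : ∑ i, z i ^ 2 = 8 := by
    unfold sqNorm at hn
    simp only [mul_pow, ← mul_sum] at hn
    omega
  have hle : ∀ i ∈ (univ : Finset GolayPt), (if i ∈ od z then 1 else 0 : ℤ) ≤ z i ^ 2 := fun i _ => by
    split_ifs with hi
    · rw [mem_od] at hi
      have : z i ≠ 0 := by omega
      exact (one_le_sq_iff_one_le_abs _).2 (Int.one_le_abs this)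
    · exact sq_nonneg _
  have hc : ∑ i, (if i ∈ od z then 1 else 0 : ℤ) = (od z).card := by simp
  have h1 := sum_le_sum hle
  rw [hc, hs] at h1
  have h2 : (od z).card = 8 := by omega
  refine ⟨h2, fun i => ((sum_eq_sum_iff_of_le hle).1 (by rw [hc, hs, h2]; rfl) i (mem_univ i)).symm⟩

omit h in
theorem cnt1 : {x | x ∈ Λ ∧ sqNorm x = 32 ∧ ∀ i, x i % 4 = 0}.ncard ≤ 2304 := by
  classical
  let F : (GolayPt × Bool) × (GolayPt × Bool) → GolayPt → ℤ := fun p k =>
    4 * (Pi.single p.1.1 (if p.1.2 then 1 else -1) + Pi.single p.2.1 (if p.2.2 then 1 else -1) :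
      GolayPt → ℤ) k
  have hsub : {x | x ∈ Λ ∧ sqNorm x = 32 ∧ ∀ i, x i % 4 = 0} ⊆ (univ.image F : Finset _) := by
    rintro x ⟨-, hn, h4⟩
    have hx : x = fun i => 4 * (x i / 4) := funext fun i => by have := h4 i; omega
    have : ∑ i, (x i / 4) ^ 2 = 2 := by
      rw [hx] at hn
      unfold sqNorm at hn
      simp only [mul_pow, ← mul_sum] at hn
      omega
    obtain ⟨i, j, a, b, e⟩ := sq_two this
    refine mem_coe.2 (mem_image.2 ⟨((i, a), (j, b)), mem_univ _, ?_⟩)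
    rw [hx]; funext k
    simp only [F]; rw [← e]
  refine (Set.ncard_le_ncard hsub (finite_toSet _)).trans ?_
  rw [Set.ncard_coe_finset]
  refine card_image_le.trans ?_
  simp

theorem cnt2 : {x | x ∈ Λ ∧ sqNorm x = 32 ∧ (∀ i, x i % 2 = 0) ∧ ¬∀ i, x i % 4 = 0}.ncard ≤
    97152 := by
  classical
  set O := univ.filter fun c : Finset GolayPt => c ∈ cs Λ ∧ c.card = 8 with hO
  let T : Finset (Σ _ : Finset GolayPt, Finset GolayPt) :=
    O.sigma fun c => (c.erase (pick c)).powerset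
  have hT : T.card ≤ 97152 := by
    rw [card_sigma, sum_const_nat (m := 128)]
    · have := h.oct_le
      rw [← hO] at this; omega
    · intro c hc
      simp only [hO, mem_filter] at hc
      rw [card_powerset, card_erase_of_mem (pick_mem (card_pos.1 (by omega))), hc.2.2]; rfl
  let sp : (GolayPt → ℤ) → Finset GolayPt := fun x => od fun i => x i / 2
  let F : (GolayPt → ℤ) → Σ _ : Finset GolayPt, Finset GolayPt := fun x =>
    ⟨sp x, ((sp x).erase (pick (sp x))).filter fun i => x i < 0⟩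
  have key : ∀ x ∈ Λ, sqNorm x = 32 → (∀ i, x i % 2 = 0) → (¬∀ i, x i % 4 = 0) →
      sp x ∈ O ∧ ∀ i, (i ∈ sp x → x i = 2 ∨ x i = -2) ∧ (i ∉ sp x → x i = 0) := by
    intro x hx hn h2 h4
    have e : x = fun i => 2 * (x i / 2) := funext fun i => by have := h2 i; omega
    have hne : od (fun i => x i / 2) ≠ ∅ := fun e => h4 fun i => by
      have : i ∉ od fun i => x i / 2 := by rw [e]; simp
      rw [mem_od] at this
      have := h2 i; omega
    obtain ⟨h8, hs⟩ := h.even_shape (z := fun i => x i / 2) (e ▸ hx) (e ▸ hn) hne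
    refine ⟨mem_filter.2 ⟨mem_univ _, mem_cs.2 ⟨_, e ▸ hx, rfl⟩, h8⟩, fun i => ⟨fun hi => ?_,
      fun hi => ?_⟩⟩
    · have := hs i
      rw [if_pos hi, sq_eq_one_iff] at this
      have := h2 i; omega
    · have := hs i
      rw [if_neg hi, pow_eq_zero_iff two_ne_zero] at this
      have := h2 i; omega
  refine le_trans ?_ hT
  rw [← Set.ncard_coe_finset]
  refine Set.ncard_le_ncard_of_injOn F ?_ ?_ (finite_toSet _)
  · rintro x ⟨hx, hn, h2, h4⟩
    exact mem_coe.2 (mem_sigma.2 ⟨(key x hx hn h2 h4).1, mem_powerset.2 (filter_subset _ _)⟩)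
  · rintro x ⟨hx, hn, h2, h4⟩ y ⟨hy, hn', h2', h4'⟩ e
    obtain ⟨-, kx⟩ := key x hx hn h2 h4
    obtain ⟨-, ky⟩ := key y hy hn' h2' h4'
    simp only [F, Sigma.mk.injEq, heq_eq_eq] at e
    obtain ⟨e1, e2⟩ := e
    rw [← e1] at e2 ky
    have hoff : ∀ i, i ≠ pick (sp x) → x i = y i := fun i hi => by
      by_cases hm : i ∈ sp x
      · have := Finset.ext_iff.1 e2 i
        simp only [mem_filter, mem_erase, ne_eq, hi, not_false_eq_true, hm, true_and] at this
        have a := (kx i).1 hm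
        have b := (ky i).1 hm
        omega
      · rw [(kx i).2 hm, (ky i).2 hm]
    by_contra hne
    have hp : x (pick (sp x)) ≠ y (pick (sp x)) := fun e => hne (funext fun i => by
      by_cases hi : i = pick (sp x)
      · rw [hi, e]
      · exact hoff i hi)
    have hd : x - y = Pi.single (pick (sp x)) (x (pick (sp x)) - y (pick (sp x))) := by
      funext i
      by_cases hi : i = pick (sp x)
      · rw [hi]; simp
      · simp [Pi.single_eq_of_ne hi, hoff i hi]
    refine h.ne16 _ (Λ.sub_mem hx hy) ?_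
    rw [hd, sqNorm_single]
    by_cases hm : pick (sp x) ∈ sp x
    · rcases (kx _).1 hm with a | a <;> rcases (ky _).1 hm with b | b <;> rw [a, b] at hp ⊢ <;>
        first | exact absurd rfl hp | rfl
    · exact absurd (((kx _).2 hm).trans ((ky _).2 hm).symm) hp

omit h in
theorem cnt3 {x0 : GolayPt → ℤ} (hx0 : x0 ∈ Λ) (h0 : ∀ i, x0 i % 2 = 1) :
    {x | x ∈ Λ ∧ sqNorm x = 32 ∧ ∀ i, x i % 2 = 1}.ncard ≤ 24 * (cs Λ).ncard := by
  classical
  let T : Finset (Finset GolayPt × Finset GolayPt) :=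
    powersetCard 1 univ ×ˢ univ.filter fun c => c ∈ cs Λ
  have hT : T.card = 24 * (cs Λ).ncard := by
    rw [card_product, card_powersetCard, card_univ, card_golayPt, ← Set.ncard_coe_finset]
    congr 2
    ext c; simp
  rw [← hT, ← Set.ncard_coe_finset]
  refine Set.ncard_le_ncard_of_injOn (fun x => (univ.filter fun i => x i ^ 2 = 9,
    od fun i => (x i - x0 i) / 2)) ?_ ?_ (finite_toSet _)
  · rintro x ⟨hx, hn, h1⟩
    obtain ⟨i, hi, hj⟩ := odd_shape h1 hn
    refine mem_coe.2 (mem_product.2 ⟨mem_powersetCard.2 ⟨subset_univ _, card_eq_one.2 ⟨i, ?_⟩⟩,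
      mem_filter.2 ⟨mem_univ _, mem_cs.2 ⟨_, ?_, rfl⟩⟩⟩)
    · ext j
      by_cases e : j = i
      · simp [e, hi]
      · simp [e, hj j e]
    · convert Λ.sub_mem hx hx0 using 1
      funext j
      have := h0 j; have := h1 j
      simp only [Pi.sub_apply]; omega
  · rintro x ⟨-, hn, h1⟩ y ⟨-, hn', h1'⟩ e
    simp only [Prod.mk.injEq] at e
    obtain ⟨i, hi, hj⟩ := odd_shape h1 hn
    obtain ⟨i', hi', hj'⟩ := odd_shape h1' hn'
    funext k
    have e1 := Finset.ext_iff.1 e.1 k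
    have e2 := Finset.ext_iff.1 e.2 k
    simp only [mem_filter, mem_univ, true_and, mem_od] at e1 e2
    have a := h0 k; have b := h1 k; have c := h1' k
    have s9 : ∀ a : ℤ, a ^ 2 = 9 → a = 3 ∨ a = -3 := fun a ha =>
      sq_eq_sq_iff_eq_or_eq_neg.1 (ha.trans (by norm_num : (9 : ℤ) = 3 ^ 2))
    have s1 : ∀ a : ℤ, a ^ 2 = 1 → a = 1 ∨ a = -1 := fun a ha =>
      sq_eq_sq_iff_eq_or_eq_neg.1 (ha.trans (by norm_num : (1 : ℤ) = 1 ^ 2))
    by_cases h9 : x k ^ 2 = 9
    · have u := s9 _ h9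
      have v := s9 _ (e1.1 h9)
      omega
    · have u := s1 _ (hj k fun e => h9 (e ▸ hi))
      have v := s1 _ (hj' k fun e => h9 (e1.2 (e ▸ hi')))
      omega

theorem golay : Golay.IsGolaySys (cs Λ) ∧ ∃ x0 ∈ Λ, ∀ i, x0 i % 2 = 1 := by
  have hfin : {x | x ∈ Λ ∧ sqNorm x = 32}.Finite :=
    Set.finite_of_ncard_ne_zero (by rw [h.cnt]; norm_num)
  have hsub : {x | x ∈ Λ ∧ sqNorm x = 32} ⊆
      ({x | x ∈ Λ ∧ sqNorm x = 32 ∧ ∀ i, x i % 4 = 0} ∪
        {x | x ∈ Λ ∧ sqNorm x = 32 ∧ (∀ i, x i % 2 = 0) ∧ ¬∀ i, x i % 4 = 0}) ∪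
        {x | x ∈ Λ ∧ sqNorm x = 32 ∧ ∀ i, x i % 2 = 1} := by
    rintro x ⟨hx, hn⟩
    by_cases h4 : ∀ i, x i % 4 = 0
    · exact Or.inl (Or.inl ⟨hx, hn, h4⟩)
    · by_cases h2 : x none % 2 = 0
      · exact Or.inl (Or.inr ⟨hx, hn, fun i => (h.parity hx i none).trans h2, h4⟩)
      · exact Or.inr ⟨hx, hn, fun i => (h.parity hx i none).trans (by omega)⟩
  have h1 := Set.ncard_le_ncard hsub (((hfin.subset fun x hx => ⟨hx.1, hx.2.1⟩).union
    (hfin.subset fun x hx => ⟨hx.1, hx.2.1⟩)).union (hfin.subset fun x hx => ⟨hx.1, hx.2.1⟩))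
  rw [h.cnt] at h1
  replace h1 := h1.trans ((Set.ncard_union_le _ _).trans
    (Nat.add_le_add_right ((Set.ncard_union_le _ _).trans (Nat.add_le_add cnt1 h.cnt2)) _))
  obtain ⟨x0, hx0, -, h0⟩ : {x | x ∈ Λ ∧ sqNorm x = 32 ∧ ∀ i, x i % 2 = 1}.Nonempty :=
    Set.nonempty_of_ncard_ne_zero (by omega)
  have h3 := cnt3 hx0 h0
  rw [Golay.ncard_supports_submodule] at h3
  have h4 := h.finrank_le
  have h5 : Module.finrank (ZMod 2) (code Λ) = 12 := by
    by_contra hc
    have : 2 ^ Module.finrank (ZMod 2) (code Λ) ≤ 2 ^ 11 :=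
      Nat.pow_le_pow_right (by norm_num) (by omega)
    omega
  refine ⟨Golay.isGolaySys_supports card_golayPt _ h5 fun w hw hne => ?_, x0, hx0, h0⟩
  rw [Golay.hammingNorm_eq]
  refine h.min_wt (Golay.support₂_mem_supports.2 hw) fun e => hne ?_
  rw [← Golay.word_support₂ w, e, Golay.word_empty]

end Pre

end Cfsg.Lib.LU
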